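import Mathlib
import Cfsg.Agent.Lib.Helper95.BRA.Defs

/-!
# BRA (S4484), package [B3]: the trace inequality `tr (P Q) ≤ tr (Q (A Q Aᴴ))` with equality case
-/

set_option autoImplicit false

open scoped Matrix ComplexConjugate

namespace Cfsg.Agent.Lib.Helper84.BRA

open Cfsg.Agent.Lib.Helper95.BRA

variable {n : ℕ}

theorem nsq_eq (w : Fin n → ℂ) : ((nsq w : ℝ) : ℂ) = star w ⬝ᵥ w := by
  unfold nsq dotProduct
  push_cast
  refine Finset.sum_congr rfl (fun i _ => ?_)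
  rw [Complex.normSq_eq_conj_mul_self]
  rfl

theorem nsq_nonneg' (w : Fin n → ℂ) : 0 ≤ nsq w :=
  Finset.sum_nonneg (fun i _ => Complex.normSq_nonneg _)

theorem nsq_eq_zero' {w : Fin n → ℂ} (h : nsq w = 0) : w = 0 := by
  funext i
  have h1 := (Finset.sum_eq_zero_iff_of_nonneg
    (fun i _ => Complex.normSq_nonneg (w i))).mp h i (Finset.mem_univ i)
  exact Complex.normSq_eq_zero.mp h1

theorem nsq_norm (u : Fin n → ℂ) : nsq u = ∑ i, ‖u i‖ ^ 2 := by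
  unfold nsq
  refine Finset.sum_congr rfl (fun i _ => ?_)
  rw [Complex.normSq_eq_norm_sq]

theorem cauchy (u v : Fin n → ℂ) : Complex.normSq (star u ⬝ᵥ v) ≤ nsq u * nsq v := by
  rw [Complex.normSq_eq_norm_sq]
  have h1 : ‖star u ⬝ᵥ v‖ ≤ ∑ i, ‖u i‖ * ‖v i‖ := by
    unfold dotProduct
    refine (norm_sum_le _ _).trans (le_of_eq ?_)
    refine Finset.sum_congr rfl (fun i _ => ?_)
    rw [norm_mul, Pi.star_apply, norm_star]
  have h2 : (∑ i, ‖u i‖ * ‖v i‖) ^ 2 ≤ (∑ i, ‖u i‖ ^ 2) * ∑ i, ‖v i‖ ^ 2 :=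
    Finset.sum_mul_sq_le_sq_mul_sq _ _ _
  rw [nsq_norm, nsq_norm]
  have h0 : 0 ≤ ‖star u ⬝ᵥ v‖ := norm_nonneg _
  exact (pow_le_pow_left₀ h0 h1 2).trans h2

theorem nsq_unitary (A : Matrix (Fin n) (Fin n) ℂ) (hA : Aᴴ * A = 1) (w : Fin n → ℂ) :
    nsq (A *ᵥ w) = nsq w := by
  have h : ((nsq (A *ᵥ w) : ℝ) : ℂ) = ((nsq w : ℝ) : ℂ) := by
    rw [nsq_eq, nsq_eq, Matrix.star_mulVec, Matrix.dotProduct_mulVec, Matrix.vecMul_vecMul, hA,
      Matrix.vecMul_one]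
  exact_mod_cast h

theorem herm_move (Q : Matrix (Fin n) (Fin n) ℂ) (hQ : Qᴴ = Q) (w u : Fin n → ℂ) :
    star w ⬝ᵥ (Q *ᵥ u) = star (Q *ᵥ w) ⬝ᵥ u := by
  rw [Matrix.star_mulVec, hQ, Matrix.dotProduct_mulVec]

theorem mulVec_single_entry (M : Matrix (Fin n) (Fin n) ℂ) (k i : Fin n) :
    (M *ᵥ Pi.single i (1 : ℂ)) k = M k i := by
  simp [Matrix.mulVec_single_one]

theorem colsq (M : Matrix (Fin n) (Fin n) ℂ) :
    ((∑ i, nsq (M *ᵥ Pi.single i 1) : ℝ) : ℂ) = (Mᴴ * M).trace := by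
  unfold nsq Matrix.trace
  push_cast
  refine Finset.sum_congr rfl (fun i _ => ?_)
  rw [Matrix.diag_apply, Matrix.mul_apply]
  refine Finset.sum_congr rfl (fun k _ => ?_)
  rw [mulVec_single_entry, Matrix.conjTranspose_apply, Complex.normSq_eq_conj_mul_self]
  rfl

/-- [B3] -/
theorem pkgB3 : PkgB3 := by
  intro n A P Q hA hP hPP hQ hQQ h1 h2
  have hQ'h : (A * Q * Aᴴ)ᴴ = A * Q * Aᴴ := by
    rw [Matrix.conjTranspose_mul, Matrix.conjTranspose_mul, Matrix.conjTranspose_conjTranspose,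
      hQ, Matrix.mul_assoc]
  have hQ'Q' : (A * Q * Aᴴ) * (A * Q * Aᴴ) = A * Q * Aᴴ := by
    calc A * Q * Aᴴ * (A * Q * Aᴴ) = A * Q * (Aᴴ * A) * Q * Aᴴ := by
          simp only [Matrix.mul_assoc]
      _ = A * (Q * Q) * Aᴴ := by rw [hA, Matrix.mul_one, Matrix.mul_assoc A Q Q]
      _ = _ := by rw [hQQ]
  have hterm : ∀ i : Fin n,
      nsq ((P * Q) *ᵥ Pi.single i 1) ≤ nsq (((A * Q * Aᴴ) * Q) *ᵥ Pi.single i 1) ∧
      (nsq ((P * Q) *ᵥ Pi.single i 1) = nsq (((A * Q * Aᴴ) * Q) *ᵥ Pi.single i 1) →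
        (P * Q) *ᵥ Pi.single i 1 = Q *ᵥ Pi.single i 1) := by
    intro i
    have e1 : (P * Q) *ᵥ Pi.single i 1 = P *ᵥ (Q *ᵥ Pi.single i (1 : ℂ)) := by
      rw [Matrix.mulVec_mulVec]
    have e2 : ((A * Q * Aᴴ) * Q) *ᵥ Pi.single i 1
        = (A * Q * Aᴴ) *ᵥ (Q *ᵥ Pi.single i (1 : ℂ)) := by
      rw [Matrix.mulVec_mulVec]
    rw [e1, e2]
    have hQw : Q *ᵥ (Q *ᵥ Pi.single i (1 : ℂ)) = Q *ᵥ Pi.single i (1 : ℂ) := by
      rw [Matrix.mulVec_mulVec, hQQ]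
    generalize Q *ᵥ Pi.single i (1 : ℂ) = w at hQw ⊢
    have hAw : (A * Q * Aᴴ) *ᵥ (A *ᵥ w) = A *ᵥ w := by
      rw [Matrix.mulVec_mulVec]
      have e : A * Q * Aᴴ * A = A * Q := by rw [Matrix.mul_assoc (A * Q), hA, Matrix.mul_one]
      rw [e, ← Matrix.mulVec_mulVec, hQw]
    have hip : star w ⬝ᵥ (A *ᵥ w) = star ((A * Q * Aᴴ) *ᵥ w) ⬝ᵥ (A *ᵥ w) := by
      rw [← herm_move (A * Q * Aᴴ) hQ'h, hAw]
    have hcs : Complex.normSq (star w ⬝ᵥ (A *ᵥ w)) ≤ nsq ((A * Q * Aᴴ) *ᵥ w) * nsq w := by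
      rw [hip]
      have h := cauchy ((A * Q * Aᴴ) *ᵥ w) (A *ᵥ w)
      rwa [nsq_unitary A hA w] at h
    have hle := h1 w
    have hchain : nsq (P *ᵥ w) * nsq w ≤ nsq ((A * Q * Aᴴ) *ᵥ w) * nsq w := hle.trans hcs
    by_cases hw0 : nsq w = 0
    · have hz : w = 0 := nsq_eq_zero' hw0
      rw [hz]
      simp [nsq]
    · have hpos : 0 < nsq w := lt_of_le_of_ne (nsq_nonneg' w) (Ne.symm hw0)
      refine ⟨le_of_mul_le_mul_right hchain hpos, ?_⟩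
      intro heq
      apply h2 w
      apply le_antisymm hle
      rw [heq]
      exact hcs
  have hsumP : ((∑ i, nsq ((P * Q) *ᵥ Pi.single i 1) : ℝ) : ℂ) = (P * Q).trace := by
    rw [colsq, Matrix.conjTranspose_mul, hP, hQ]
    calc (Q * P * (P * Q)).trace = (Q * (P * Q)).trace := by
          rw [Matrix.mul_assoc Q P, ← Matrix.mul_assoc P P Q, hPP]
      _ = ((P * Q) * Q).trace := Matrix.trace_mul_comm _ _
      _ = (P * Q).trace := by rw [Matrix.mul_assoc, hQQ]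
  have hsumQ : ((∑ i, nsq (((A * Q * Aᴴ) * Q) *ᵥ Pi.single i 1) : ℝ) : ℂ)
      = (Q * (A * Q * Aᴴ)).trace := by
    rw [colsq, Matrix.conjTranspose_mul, hQ'h, hQ]
    calc (Q * (A * Q * Aᴴ) * ((A * Q * Aᴴ) * Q)).trace = (Q * ((A * Q * Aᴴ) * Q)).trace := by
          rw [Matrix.mul_assoc Q (A * Q * Aᴴ), ← Matrix.mul_assoc (A * Q * Aᴴ) (A * Q * Aᴴ) Q,
            hQ'Q']
      _ = (((A * Q * Aᴴ) * Q) * Q).trace := Matrix.trace_mul_comm _ _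
      _ = ((A * Q * Aᴴ) * Q).trace := by rw [Matrix.mul_assoc (A * Q * Aᴴ) Q Q, hQQ]
      _ = (Q * (A * Q * Aᴴ)).trace := Matrix.trace_mul_comm _ _
  have hreP : (P * Q).trace.re = ∑ i, nsq ((P * Q) *ᵥ Pi.single i 1) := by
    rw [← hsumP, Complex.ofReal_re]
  have hreQ : (Q * (A * Q * Aᴴ)).trace.re
      = ∑ i, nsq (((A * Q * Aᴴ) * Q) *ᵥ Pi.single i 1) := by
    rw [← hsumQ, Complex.ofReal_re]
  refine ⟨?_, ?_⟩
  · rw [hreP, hreQ]
    exact Finset.sum_le_sum (fun i _ => (hterm i).1)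
  · intro heq
    rw [hreP, hreQ] at heq
    have hall := (Finset.sum_eq_sum_iff_of_le (fun i _ => (hterm i).1)).mp heq
    ext k i
    have h := congrFun ((hterm i).2 (hall i (Finset.mem_univ i))) k
    rw [mulVec_single_entry, mulVec_single_entry] at h
    exact h

end Cfsg.Agent.Lib.Helper84.BRA
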